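import Cfsg.Agent.Lib.Helper44.Frob3.Defs
import Cfsg.Agent.Lib.Helper3.CharKernel
import Cfsg.Agent.Lib.Helper77.CharBasic

/-!
# S4427 "Frob3", package (F): finish (helper27)
-/

set_option autoImplicit false

namespace Cfsg.Agent.Lib.Helper27.Frob3

open Cfsg.Agent.Lib.Helper44.Frob3

universe u

theorem pkgFinish : PkgFinish.{u} := by
  intro G _ _ p hp n c hc hn hval
  classical
  have hfin : Finite (Cfsg.IrrCharacter G) := Cfsg.Agent.Lib.Helper77.irr_finite G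
  letI : Fintype (Cfsg.IrrCharacter G) := Fintype.ofFinite _
  have hdata : ∀ χ : Cfsg.IrrCharacter G, ∃ (K : Subgroup G) (d : ℕ), K.Normal ∧
      (χ : G → ℂ) 1 = (d : ℂ) ∧ (∀ g, g ∈ K ↔ (χ : G → ℂ) g = (χ : G → ℂ) 1) ∧
      (∀ g, ‖(χ : G → ℂ) g‖ ≤ (d : ℝ)) := by
    rintro ⟨χ, m, ρ, -, rfl⟩
    refine ⟨MonoidHom.ker ρ, Module.finrank ℂ (Fin m → ℂ), MonoidHom.normal_ker ρ,
      Representation.char_one ρ, fun g => ?_,
      fun g => Cfsg.Agent.Lib.Helper3.norm_character_le ρ g⟩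
    show g ∈ MonoidHom.ker ρ ↔ ρ.character g = ρ.character 1
    rw [MonoidHom.mem_ker, Representation.char_one,
      Cfsg.Agent.Lib.Helper3.character_eq_finrank_iff]
    rfl
  choose K d hKn hd1 hK hnorm using hdata
  refine ⟨⨅ χ : {χ : Cfsg.IrrCharacter G // n χ ≠ 0}, K χ.1,
    Subgroup.normal_iInf_normal (fun χ => hKn χ.1), fun g => ?_⟩
  have h1 : ¬ p ∣ orderOf (1 : G) := by
    rw [orderOf_one]
    intro h
    exact hp.one_lt.ne' (Nat.dvd_one.1 h)
  have hv1 := hval 1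
  rw [if_neg h1, finsum_eq_sum_of_fintype] at hv1
  have hvg := hval g
  rw [finsum_eq_sum_of_fintype] at hvg
  rw [Subgroup.mem_iInf]
  constructor
  · intro hg hpg
    rw [if_pos hpg] at hvg
    apply hc
    rw [← hv1, ← hvg]
    apply Finset.sum_congr rfl
    intro χ _
    by_cases hχ : n χ = 0
    · rw [hχ]; simp
    · rw [(hK χ g).1 (hg ⟨χ, hχ⟩)]
  · intro hpg χ
    rw [if_neg hpg] at hvg
    rw [hK]
    have hsum : ∑ χ : Cfsg.IrrCharacter G,
        (n χ : ℝ) * ((d χ : ℝ) - ((χ : G → ℂ) g).re) = 0 := by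
      have h2 : ∑ χ : Cfsg.IrrCharacter G,
          ((n χ : ℂ) * (χ : G → ℂ) 1 - (n χ : ℂ) * (χ : G → ℂ) g) = 0 := by
        rw [Finset.sum_sub_distrib, hv1, hvg, sub_self]
      have h3 := congrArg Complex.re h2
      rw [Complex.re_sum, Complex.zero_re] at h3
      rw [← h3]
      apply Finset.sum_congr rfl
      intro χ _
      rw [hd1 χ]
      simp [Complex.sub_re, Complex.mul_re]
      ring
    have hnonneg : ∀ χ ∈ (Finset.univ : Finset (Cfsg.IrrCharacter G)),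
        0 ≤ (n χ : ℝ) * ((d χ : ℝ) - ((χ : G → ℂ) g).re) := by
      intro χ _
      apply mul_nonneg (by exact_mod_cast hn χ)
      have := (Complex.re_le_norm _).trans (hnorm χ g)
      linarith
    have hz := (Finset.sum_eq_zero_iff_of_nonneg hnonneg).1 hsum χ.1 (Finset.mem_univ _)
    have hre : ((χ.1 : G → ℂ) g).re = (d χ.1 : ℝ) := by
      rcases mul_eq_zero.1 hz with h | h
      · exact absurd (by exact_mod_cast h) χ.2
      · linarith
    have hn2 := hnorm χ.1 g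
    have hval' : (χ.1 : G → ℂ) g = (d χ.1 : ℂ) := by
      have hsq : ‖(χ.1 : G → ℂ) g‖ ^ 2 =
          ((χ.1 : G → ℂ) g).re ^ 2 + ((χ.1 : G → ℂ) g).im ^ 2 := by
        rw [Complex.sq_norm, Complex.normSq_apply]; ring
      have him : ((χ.1 : G → ℂ) g).im = 0 := by
        have h5 : ‖(χ.1 : G → ℂ) g‖ ^ 2 ≤ (d χ.1 : ℝ) ^ 2 :=
          pow_le_pow_left₀ (norm_nonneg _) hn2 2
        rw [hsq, hre] at h5
        nlinarith [sq_nonneg (((χ.1 : G → ℂ) g).im)]
      apply Complex.ext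
      · rw [hre]; simp
      · rw [him]; simp
    rw [hval', hd1]

end Cfsg.Agent.Lib.Helper27.Frob3
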